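import Cfsg.Agent.Lib.Compute.HeSp4.Data

/-!
# The subgroup of index 2058 of the presented Held group and `Sp(4,4)`
-/

set_option autoImplicit false

namespace Cfsg.Agent.Lib.Compute.HeSp4

open Cfsg.Agent.Lib.Compute.PermCert Cfsg.Agent.Lib.Compute.BlockIso Cfsg.Agent.Lib.Compute.Sp44
  Cfsg.Agent.Lib.Compute.GFModel
open Cfsg.Agent.Lib.Compute.ToddCoxeterCore Cfsg.Agent.Lib.Compute.ToddCoxeterPresented
open Cfsg.Agent.Lib.Compute.TC

/-! ### The two groups on the blocks -/

theorem zcChk : chainCheck 7 127 85 zc = true := by decide +kernel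
theorem zpcChk : chainCheck 7 127 85 zpc = true := by decide +kernel

theorem zcCard : Nat.card (chainGroup 7 127 85 zc) = 979200 := by
  rw [chain_card zcChk]; decide +kernel
theorem zpcCard : Nat.card (chainGroup 7 127 85 zpc) = 1958400 := by
  rw [chain_card zpcChk]; decide +kernel

theorem zc_le : chainGroup 7 127 85 zc ≤ chainGroup 7 127 85 zpc := by
  apply Subgroup.closure_mono
  rintro x ⟨e, he, rfl⟩
  refine ⟨e, ?_, rfl⟩
  have h1 : nextGens zc = [pe1, pe2, pe4, pe6] := rfl
  have h2 : nextGens zpc = [pe0, pe1, pe2, pe3, pe4, pe5, pe6] := rfl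
  rw [h1] at he
  rw [h2]
  simp only [List.mem_cons, List.not_mem_nil, or_false] at he ⊢
  tauto

/-! ### The matrices -/

/-- The position of a coordinate. -/
def idx : I4 → ℕ
  | .inl k => k
  | .inr k => 2 + k

/-- The matrix with a given code. -/
def mat (c : ℕ) : Matrix I4 I4 GF4 := fun i j => decC (c / 4 ^ (4 * idx i + idx j) % 4)

/-- The matrix of the generator 1. -/
def A1 : Sp4 := ⟨mat mc1, by rw [SymplecticGroup.mem_iff]; decide +kernel⟩
/-- The matrix of the generator 2. -/
def A2 : Sp4 := ⟨mat mc2, by rw [SymplecticGroup.mem_iff]; decide +kernel⟩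
/-- The matrix of the generator 4. -/
def A4 : Sp4 := ⟨mat mc4, by rw [SymplecticGroup.mem_iff]; decide +kernel⟩
/-- The matrix of the generator 6. -/
def A6 : Sp4 := ⟨mat mc6, by rw [SymplecticGroup.mem_iff]; decide +kernel⟩

theorem rho_of_table (A : Sp4) (e : Elt) (he : validB 7 127 85 e = true)
    (h : ∀ y : Fin 85, lab (Matrix.mulVec A.1 (rep y)) = get 7 127 e.f y) :
    rho A = permOf 7 127 85 e :=
  rho_eq A _ fun y => by rw [h y, permOf_apply he]

set_option maxRecDepth 100000 in
theorem rho1 : rho A1 = permOf 7 127 85 pe1 := rho_of_table _ _ (by decide +kernel) (by decide +kernel)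
set_option maxRecDepth 100000 in
theorem rho2 : rho A2 = permOf 7 127 85 pe2 := rho_of_table _ _ (by decide +kernel) (by decide +kernel)
set_option maxRecDepth 100000 in
theorem rho4 : rho A4 = permOf 7 127 85 pe4 := rho_of_table _ _ (by decide +kernel) (by decide +kernel)
set_option maxRecDepth 100000 in
theorem rho6 : rho A6 = permOf 7 127 85 pe6 := rho_of_table _ _ (by decide +kernel) (by decide +kernel)

theorem zc_le_rho : chainGroup 7 127 85 zc ≤ rho.range := by
  apply (Subgroup.closure_le _).2
  rintro x ⟨e, he, rfl⟩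
  have h1 : nextGens zc = [pe1, pe2, pe4, pe6] := rfl
  rw [h1] at he
  simp only [List.mem_cons, List.not_mem_nil, or_false] at he
  rcases he with rfl | rfl | rfl | rfl
  · exact ⟨A1, rho1⟩
  · exact ⟨A2, rho2⟩
  · exact ⟨A4, rho4⟩
  · exact ⟨A6, rho6⟩

/-! ### The labels of the cosets -/

/-- The table facts of the labels of the cosets. -/
theorem walkOK : allB (fun j => allB (fun i =>
    Bool.rec (motive := fun _ => Bool) true
      (Nat.beq (lb (He1.cfg.walkEnd (He1.hwL.getD j []) i)) (get 7 127 (pes.getD j ⟨0, 0⟩).f (lb i)))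
      (Nat.blt (lb i) 85)) 2058) 7 = true := by
  decide +kernel

theorem rpOK : allB (fun y => Nat.blt (rp y) 2058 && Nat.beq (lb (rp y)) y) 85 = true := by decide +kernel

/-- The cosets as a type. -/
abbrev Om : Type := Fin He1.cfg.N

/-- The partial labelling of the cosets. -/
def lF (i : Om) : Option (Fin 85) := if h : lb i < 85 then some ⟨lb i, h⟩ else none

theorem lF_eq {i : Om} {y : Fin 85} : lF i = some y ↔ lb i = y := by
  unfold lF
  split_ifs with h
  · constructor
    · intro h1
      rw [← Option.some.inj h1]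
    · intro h1
      congr 1
      exact Fin.ext h1
  · constructor
    · intro h1; cases h1
    · intro h1
      exact absurd (by rw [h1]; exact y.2) h

theorem cN : He1.cfg.N = 2058 := rfl

theorem lF_surj (y : Fin 85) : ∃ i, lF i = some y := by
  have h := (allB_iff _ _).1 rpOK y y.2
  simp only [Bool.and_eq_true, Nat.blt_eq, Nat.beq_eq] at h
  exact ⟨⟨rp y, h.1⟩, lF_eq.2 h.2⟩

/-- The presented group. -/
abbrev P : Type := PresentedGroup He1.RR

/-- The action on the cosets. -/
noncomputable abbrev phi : P →* Equiv.Perm Om := phiG He1.hR He1.small He1.big He1.hgens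

/-- The subgroup. -/
abbrev K : Subgroup P := HOf He1.RR He1.D.Hs

theorem letters_of_index {j : ℕ} (hj : j < He1.D.Hs.length) :
    toLetters He1.D.lets He1.D.Hs[j] = He1.hwL.getD j [] := by
  have h := He1.small.hhw
  have h1 : He1.hwL = He1.D.Hs.map (toLetters He1.D.lets) := h
  rw [h1, List.getD_eq_getElem _ _ (by simpa using hj), List.getElem_map]

theorem pes_valid : ∀ e ∈ pes, validB 7 127 85 e = true := by decide +kernel

theorem act_index {j : ℕ} (hj : j < 7) (i : Om) (y : Fin 85) (hi : lF i = some y) :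
    lF (phi (PresentedGroup.mk He1.RR (He1.D.Hs[j]'hj)) i) = some (permOf 7 127 85 (pes[j]'hj) y) := by
  have h1 := (allB_iff _ _).1 ((allB_iff _ _).1 walkOK j hj) i i.2
  have hy := lF_eq.1 hi
  rw [hy] at h1
  have h2 : Nat.blt (y : ℕ) 85 = true := by simp [Nat.blt_eq, y.2]
  rw [h2] at h1
  have h3 := Nat.eq_of_beq_eq_true h1
  rw [lF_eq, permOf_apply ((pes_valid _ (List.getElem_mem hj))), phiG_mk,
    lift_val He1.small (tok He1.small He1.big) He1.hgens, letters_of_index hj, h3]
  rw [List.getD_eq_getElem _ _ hj]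

/-- The image of the subgroup on the blocks. -/
theorem exists_psi [Finite P] : ∃ ψ : K →* Equiv.Perm (Fin 85), ψ.range = chainGroup 7 127 85 zpc := by
  have hK : K = Subgroup.closure (PresentedGroup.mk He1.RR '' {h | h ∈ He1.D.Hs}) := by
    show Subgroup.map _ _ = _
    rw [MonoidHom.map_closure]
  rw [hK]
  refine range_of_label phi lF lF_surj _ _ ?_ ?_
  · rintro _ ⟨r, hr, rfl⟩
    obtain ⟨j, hj, rfl⟩ := List.mem_iff_getElem.1 hr
    have hj' : j < 7 := hj
    refine ⟨permOf 7 127 85 (pes[j]'hj'), ⟨_, List.getElem_mem hj', rfl⟩, ?_⟩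
    intro i y hi
    exact act_index hj' i y hi
  · rintro _ ⟨e, he, rfl⟩
    have he' : e ∈ pes := he
    obtain ⟨j, hj, rfl⟩ := List.mem_iff_getElem.1 he'
    have hj' : j < 7 := hj
    refine ⟨_, ⟨_, List.getElem_mem hj', rfl⟩, ?_⟩
    intro i y hi
    exact act_index hj' i y hi

/-- The subgroup of index 2058 has a normal subgroup of index 2 isomorphic to `Sp(4,4)`. -/
theorem main (hP : Nat.card P = 4030387200) :
    ∃ N : Subgroup K, N.Normal ∧ N.index = 2 ∧ Nonempty (N ≃* Sp4) := by
  have : Finite P := Nat.finite_of_card_ne_zero (by rw [hP]; norm_num)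
  have : Finite Sp4 := Nat.finite_of_card_ne_zero (by rw [card_Sp4]; norm_num)
  obtain ⟨ψ, hψ⟩ := exists_psi
  refine index_two_of_perm ψ rho _ _ zc_le hψ ?_ ?_ zc_le_rho ?_
  · have h1 := K.card_mul_index
    rw [He1.index, hP] at h1
    have h2 : Nat.card K = 1958400 :=
      Nat.eq_of_mul_eq_mul_right (by norm_num : 0 < 2058) (h1.trans (by norm_num))
    exact h2.trans zpcCard.symm
  · exact zpcCard.trans ((show (1958400 : ℕ) = 2 * 979200 by norm_num).trans (congrArg (2 * ·) zcCard.symm))
  · exact card_Sp4.trans zcCard.symm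

end Cfsg.Agent.Lib.Compute.HeSp4
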