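import Cfsg.Agent.Lib.Compute.HeSp4.Main
import Cfsg.Agent.Lib.Compute.HeCent.Abs

/-!
# The Held group as a permutation group of degree 2058
-/

set_option autoImplicit false
set_option maxRecDepth 100000

namespace Cfsg.Agent.Lib.Compute.HeSp4

open Cfsg.Agent.Lib.Compute.ToddCoxeterCore Cfsg.Agent.Lib.Compute.ToddCoxeterPresented
open Cfsg.Agent.Lib.Compute.TC Cfsg.Agent.Lib.Compute.Sp44

/-- The action as a permutation group of degree `2058`. -/
noncomputable abbrev phi' : P →* Equiv.Perm (Fin 2058) := phi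

/-- The point `0`. -/
def pt0 : Fin He1.cfg.N := ⟨0, He1.small.hN⟩

theorem phi'_trans (y : Fin 2058) : ∃ g, phi' g 0 = y := by
  obtain ⟨g, hg⟩ := phi_trans He1.hR He1.small He1.big He1.hgens y.1 y.2
  exact ⟨g, hg⟩

/-- The stabilizer of the point in the group is the subgroup of the enumeration. -/
theorem stab_eq [Finite P] (hP : Nat.card P = 4030387200) {g : P} (hg : phi' g 0 = 0) : g ∈ K := by
  let S0 : Subgroup P := (MulAction.stabilizer (Equiv.Perm (Fin 2058)) (0 : Fin 2058)).comap phi'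
  have hS : ∀ x, x ∈ S0 ↔ phi' x 0 = 0 := fun x => by
    simp [S0, Subgroup.mem_comap, MulAction.mem_stabilizer_iff, Equiv.Perm.smul_def]
  have hKS : K ≤ S0 := fun x hx => (hS x).2 (phi_fix He1.hR He1.small He1.big He1.hgens hx)
  have h1 := Cfsg.Agent.Lib.Compute.HeCent.card_stab_mul_le phi' (0 : Fin 2058) phi'_trans S0 (fun x hx => (hS x).1 hx)
  rw [hP, Nat.card_eq_fintype_card (α := Fin 2058), Fintype.card_fin] at h1
  have h2 := K.card_mul_index
  rw [He1.index, hP] at h2
  have h3 : Nat.card K = 1958400 :=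
    Nat.eq_of_mul_eq_mul_right (by norm_num : 0 < 2058) (h2.trans (by norm_num))
  have h4 : K = S0 := Subgroup.eq_of_le_of_card_ge hKS (by omega)
  rw [h4]
  exact (hS g).2 hg

/-- The permutation group. -/
theorem exists_perm (hsimple : IsSimpleGroup P) (hinj : Function.Injective phi) (hP : Nat.card P = 4030387200) :
    ∃ H : Subgroup (Equiv.Perm (Fin 2058)), (IsSimpleGroup H ∧ Nat.card H = 4030387200) ∧
      MulAction.IsPretransitive H (Fin 2058) ∧
      ∃ N : Subgroup (MulAction.stabilizer H (0 : Fin 2058)), N.index = 2 ∧ Nonempty (N ≃* Sp4) := by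
  have : Finite P := Nat.finite_of_card_ne_zero (by rw [hP]; norm_num)
  have hinj' : Function.Injective phi' := hinj
  let e0 : P ≃* phi'.range := MonoidHom.ofInjective hinj'
  refine ⟨phi'.range, ⟨?_, ?_⟩, ⟨?_⟩, ?_⟩
  · exact MulEquiv.isSimpleGroup e0.symm
  · rw [← Nat.card_congr e0.toEquiv]
    exact hP
  · intro x y
    obtain ⟨g, hg⟩ := phi'_trans x
    obtain ⟨g', hg'⟩ := phi'_trans y
    refine ⟨⟨phi' (g' * g⁻¹), ⟨_, rfl⟩⟩, ?_⟩
    show phi' (g' * g⁻¹) x = y
    rw [map_mul, Equiv.Perm.mul_apply, map_inv, Equiv.Perm.inv_eq_iff_eq.2 hg.symm, hg']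
  · obtain ⟨N, -, h2, ⟨e⟩⟩ := main hP
    -- the isomorphism of the subgroup with the stabilizer
    let f : K →* MulAction.stabilizer phi'.range (0 : Fin 2058) :=
      { toFun := fun x => ⟨⟨phi' x.1, ⟨x.1, rfl⟩⟩, phi_fix He1.hR He1.small He1.big He1.hgens x.2⟩
        map_one' := by
          apply Subtype.ext
          apply Subtype.ext
          exact map_one phi'
        map_mul' := fun x y => by
          apply Subtype.ext
          apply Subtype.ext
          exact map_mul phi' x.1 y.1 }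
    have hf : Function.Bijective f := by
      constructor
      · intro x y h
        have h1 : phi' x.1 = phi' y.1 := congrArg (fun z => z.1.1) h
        exact Subtype.ext (hinj' h1)
      · rintro ⟨⟨_, ⟨g, rfl⟩⟩, hg⟩
        have hg' : phi' g 0 = 0 := hg
        exact ⟨⟨g, stab_eq hP hg'⟩, rfl⟩
    let E : K ≃* MulAction.stabilizer phi'.range (0 : Fin 2058) := MulEquiv.ofBijective f hf
    refine ⟨N.map E.toMonoidHom, ?_, ⟨(E.subgroupMap N).symm.trans e⟩⟩
    rw [Subgroup.index_map_of_bijective E.bijective]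
    exact h2

end Cfsg.Agent.Lib.Compute.HeSp4
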